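/-
A model of the stabilizer of a vector in `GL₃(2)`, for `L2S/Q8z`.
-/
import Mathlib.Data.ZMod.Basic
import Mathlib.Algebra.CharP.Two
import Mathlib.SetTheory.Cardinal.Finite
import Mathlib.Algebra.Module.Prod
import Mathlib.Tactic

set_option autoImplicit false
set_option synthInstance.maxSize 4000

namespace Cfsg.Agent.L2S.Z8m

abbrev K := ZMod 2 × ZMod 2 × ZMod 2

def e1 : K := (1, 0, 0)
def e2 : K := (0, 1, 0)
def e3 : K := (0, 0, 1)

/-- the additive map fixing `e1` with `e2 ↦ q`, `e3 ↦ r` -/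
def ap (q r : K) (k : K) : K := k.1 • e1 + k.2.1 • q + k.2.2 • r

/-- additive maps fixing `e1` -/
def Lin (f : K → K) : Prop := f e1 = e1 ∧ ∀ x y, f (x + y) = f x + f y

/-- transvections with centre `e1` -/
def IsT (f : K → K) : Prop := ∀ k, f k = k ∨ f k = k + e1

def Four (f : K → K) : Prop := ∀ k, f (f (f (f k))) = k

def Id (f : K → K) : Prop := ∀ k, f k = k

def Z (k : K) : Prop := k = 0 ∨ k = e1

instance (f : K → K) : Decidable (IsT f) := by unfold IsT; infer_instance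
instance (f : K → K) : Decidable (Four f) := by unfold Four; infer_instance
instance (f : K → K) : Decidable (Id f) := by unfold Id; infer_instance
instance (k : K) : Decidable (Z k) := by unfold Z; infer_instance

theorem add_self (k : K) : k + k = 0 := by revert k; decide

theorem ap_lin (q r : K) : Lin (ap q r) := by
  refine ⟨by simp [ap, e1], fun x y => ?_⟩
  simp only [ap, Prod.fst_add, Prod.snd_add, add_smul]
  abel

theorem Lin.ex {f : K → K} (h : Lin f) : ∃ q r, f = ap q r := by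
  refine ⟨f e2, f e3, funext fun k => ?_⟩
  have h0 : f 0 = 0 := by
    have := h.2 0 0
    rw [add_zero] at this
    exact left_eq_add.1 this
  have hs : ∀ (i : ZMod 2) (x : K), f (i • x) = i • f x := by
    intro i x
    have : i = 0 ∨ i = 1 := by revert i; decide
    rcases this with rfl | rfl
    · simp [h0]
    · simp
  have hk : k = k.1 • e1 + k.2.1 • e2 + k.2.2 • e3 := by
    obtain ⟨i, j, l⟩ := k
    simp [e1, e2, e3]
  conv_lhs => rw [hk]
  rw [h.2, h.2, hs, hs, hs, h.1, ap]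

theorem idx2 {f g : K → K} (hf : Lin f) (hg : Lin g) : Four f → ¬ IsT f → Four g → ¬ IsT g →
    Four (fun k => f (g k)) → IsT (fun k => f (g k)) := by
  obtain ⟨q, r, rfl⟩ := hf.ex
  obtain ⟨q', r', rfl⟩ := hg.ex
  clear hf hg
  have : ∀ q r : K, Four (ap q r) → ¬ IsT (ap q r) → ∀ q' r' : K, Four (ap q' r') →
    ¬ IsT (ap q' r') → Four (fun k => ap q r (ap q' r' k)) →
      IsT (fun k => ap q r (ap q' r' k)) := by decide +kernel
  exact fun a b => this q r a b q' r'

theorem id_of {f : K → K} (hf : Lin f) (h2 : f e2 = e2) (h3 : f e3 = e3) : Id f := by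
  obtain ⟨q, r, rfl⟩ := hf.ex
  clear hf
  revert q r
  decide +kernel

theorem real {f g τ : K → K} (hf : Lin f) (hg : Lin g) (hτ : Lin τ) (tf : IsT f) (tg : IsT g)
    (tτ : IsT τ) (h1 : f e2 ≠ e2) (h2 : g e2 = e2) (h3 : ¬ Id g) :
    Id τ ∨ (∀ k, f k = τ k) ∨ (∀ k, g k = τ k) ∨ ∀ k, f (g k) = τ k := by
  obtain ⟨q, r, rfl⟩ := hf.ex
  obtain ⟨q', r', rfl⟩ := hg.ex
  obtain ⟨q'', r'', rfl⟩ := hτ.ex
  have : ∀ q r : K, IsT (ap q r) → ap q r e2 ≠ e2 → ∀ q' r' : K, IsT (ap q' r') →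
    ap q' r' e2 = e2 → ¬ Id (ap q' r') → ∀ q'' r'' : K, IsT (ap q'' r'') → Id (ap q'' r'') ∨
      (∀ k, ap q r k = ap q'' r'' k) ∨ (∀ k, ap q' r' k = ap q'' r'' k) ∨
        ∀ k, ap q r (ap q' r' k) = ap q'' r'' k := by decide +kernel
  exact this q r tf h1 q' r' tg h2 h3 q'' r'' tτ

theorem cenT (d : K) : ∃ q r q' r', IsT (ap q r) ∧ IsT (ap q' r') ∧
    (ap q r d = d → ap q' r' d = d → Z d) :=
  ⟨e2 + e1, e3, e2, e3 + e1, by decide +kernel, by decide +kernel, by revert d; decide +kernel⟩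

theorem trans (d d' : K) : ¬ Z d → ¬ Z d' →
    ∃ q r, Function.Injective (ap q r) ∧ ap q r d = d' := by
  revert d d'
  decide +kernel

theorem ncomm {f : K → K} (hf : Lin f) : Four f → ¬ IsT f →
    ∃ q r, IsT (ap q r) ∧ ¬ ∀ k, f (ap q r k) = ap q r (f k) := by
  obtain ⟨q, r, rfl⟩ := hf.ex
  clear hf
  revert q r
  decide +kernel

theorem conjT {f g : K → K} (hf : Lin f) (hg : Lin g) (tf : IsT f) (nf : ¬ Id f) (tg : IsT g)
    (ng : ¬ Id g) : ∃ q r, Function.Injective (ap q r) ∧ ∀ k, ap q r (f k) = g (ap q r k) := by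
  obtain ⟨q, r, rfl⟩ := hf.ex
  obtain ⟨q', r', rfl⟩ := hg.ex
  have : ∀ q r : K, IsT (ap q r) → ¬ Id (ap q r) → ∀ q' r' : K, IsT (ap q' r') →
    ¬ Id (ap q' r') → ∃ a b, (∀ k, ap a b (ap q r k) = ap q' r' (ap a b k)) ∧
      Function.Injective (ap a b) := by decide +kernel
  obtain ⟨a, b, h1, h2⟩ := this q r tf nf q' r' tg ng
  exact ⟨a, b, h2, h1⟩

theorem m3_inj : Function.Injective (ap e3 (e2 + e3)) := by decide +kernel

theorem core {f g : K → K} (hf : Lin f) (hg : Lin g) (h4 : Four f) (nf : ¬ IsT f)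
    (e : ∀ k, g (ap e3 (e2 + e3) k) = ap e3 (e2 + e3) (f k)) : ¬ Four (fun k => f (g k)) := by
  obtain ⟨q, r, rfl⟩ := hf.ex
  obtain ⟨q', r', rfl⟩ := hg.ex
  have : ∀ q r : K, Four (ap q r) → ¬ IsT (ap q r) → ∀ q' r' : K,
    (∀ k, ap q' r' (ap e3 (e2 + e3) k) = ap e3 (e2 + e3) (ap q r k)) →
      ¬ Four (fun k => ap q r (ap q' r' k)) := by decide +kernel
  exact this q r h4 nf q' r' e

theorem exC {f : K → K} (hf : Lin f) : Four f → ¬ IsT f →
    ∃ q r, IsT (ap q r) ∧ ¬ Id (ap q r) ∧ ∀ k, f (ap q r k) = ap q r (f k) := by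
  obtain ⟨q, r, rfl⟩ := hf.ex
  clear hf
  revert q r
  decide +kernel

theorem uniqC {f g g' : K → K} (hf : Lin f) (hg : Lin g) (hg' : Lin g') (h4 : Four f)
    (nf : ¬ IsT f) (tg : IsT g) (ng : ¬ Id g) (cg : ∀ k, f (g k) = g (f k)) (tg' : IsT g')
    (cg' : ∀ k, f (g' k) = g' (f k)) : Id g' ∨ ∀ k, g k = g' k := by
  obtain ⟨q, r, rfl⟩ := hf.ex
  obtain ⟨q', r', rfl⟩ := hg.ex
  obtain ⟨q'', r'', rfl⟩ := hg'.ex
  have : ∀ q' r' : K, IsT (ap q' r') → ¬ Id (ap q' r') → ∀ q'' r'' : K, IsT (ap q'' r'') →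
    ∀ q r : K, Four (ap q r) → ¬ IsT (ap q r) →
      (∀ k, ap q r (ap q' r' k) = ap q' r' (ap q r k)) →
      (∀ k, ap q r (ap q'' r'' k) = ap q'' r'' (ap q r k)) →
        Id (ap q'' r'') ∨ ∀ k, ap q' r' k = ap q'' r'' k := by decide +kernel
  exact this q' r' tg ng q'' r'' tg' q r h4 nf cg cg'

theorem sqT {f : K → K} (hf : Lin f) : Four f → IsT (fun k => f (f k)) := by
  obtain ⟨q, r, rfl⟩ := hf.ex
  clear hf
  revert q r
  decide +kernel

theorem adj {f : K → K} (hf : Lin f) : Four f → ¬ IsT f → ∀ c, Z (f c + c) →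
    ∃ d, Z (f d + c + d) := by
  obtain ⟨q, r, rfl⟩ := hf.ex
  clear hf
  revert q r
  decide +kernel

theorem card4 {f : K → K} (hf : Lin f) (h4 : Four f) (nf : ¬ IsT f) :
    Nat.card {k : K // Z (f k + k)} = 4 := by
  obtain ⟨q, r, rfl⟩ := hf.ex
  rw [Nat.card_eq_fintype_card, Fintype.card_subtype]
  clear hf
  revert q r
  decide +kernel

theorem outT {f : K → K} (hf : Lin f) : Four f → ¬ IsT f →
    ∃ q r, IsT (ap q r) ∧ ∀ k, f (ap q r (f (ap q r k))) = k := by
  obtain ⟨q, r, rfl⟩ := hf.ex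
  clear hf
  revert q r
  decide +kernel

/-- coordinates on a field of order eight with a prescribed first basis vector -/
theorem exists_coord {F : Type*} [Field F] [Fintype F] [CharP F 2] (h8 : Nat.card F = 8) {b : F}
    (hb : b ≠ 0) : ∃ ψ : K ≃+ F, ψ e1 = b := by
  classical
  have ex : ∀ s : Finset F, s.card ≤ 4 → ∃ x, x ∉ s := fun s hs => by
    by_contra hn
    push Not at hn
    have : s = Finset.univ := Finset.eq_univ_iff_forall.2 hn
    rw [this, Finset.card_univ, ← Nat.card_eq_fintype_card, h8] at hs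
    omega
  obtain ⟨u, hu⟩ := ex {0, b} (Finset.card_le_two.trans (by norm_num))
  obtain ⟨w, hw⟩ := ex {0, b, u, b + u} Finset.card_le_four
  simp only [Finset.mem_insert, Finset.mem_singleton, not_or] at hu hw
  let φ := ZMod.castHom (dvd_refl 2) F
  let f : K →+ F := AddMonoidHom.mk' (fun k => φ k.1 * b + φ k.2.1 * u + φ k.2.2 * w) (by
    intro x y
    simp only [Prod.fst_add, Prod.snd_add, map_add]
    ring)
  have inj : Function.Injective f := by
    rw [injective_iff_map_eq_zero]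
    rintro ⟨i, j, l⟩ e
    have two : ∀ i : ZMod 2, i = 0 ∨ i = 1 := by decide
    change φ i * b + φ j * u + φ l * w = 0 at e
    rcases two i with rfl | rfl <;> rcases two j with rfl | rfl <;> rcases two l with rfl | rfl <;>
      simp only [map_zero, map_one, zero_mul, one_mul, add_zero, zero_add,
        CharTwo.add_eq_zero] at e
    · rfl
    · exact absurd e hw.1
    · exact absurd e hu.1
    · exact absurd e.symm hw.2.2.1
    · exact absurd e hb
    · exact absurd e.symm hw.2.1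
    · exact absurd e.symm hu.2
    · exact absurd e.symm hw.2.2.2
  have bij : Function.Bijective f := by
    rw [Nat.bijective_iff_injective_and_card]
    exact ⟨inj, by rw [h8]; simp⟩
  refine ⟨AddEquiv.ofBijective f bij, ?_⟩
  change φ 1 * b + φ 0 * u + φ 0 * w = b
  simp

end Cfsg.Agent.L2S.Z8m
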